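import Cfsg.Agent.H928.Van.Eng
import Cfsg.Agent.CharDeep.LinearChar

/-!
# S4816, TOOL-HC: Harish-Chandra induction over a given central character (helper297)

`exists_irr_over` : `Y` a finite group with a root group datum, `Z ≤ T` central, `l` a linear character of `Z`, `θ` a cuspidal
irreducible character of `M_J = ⟨X_x, x ∈ Φ_J⟩` over the restriction of `l` to `Z ∩ M_J`, `θ^g ≠ θ` for all representatives `g`
of the elements `w ∉ W_J` permuting the simple roots of `J`: the group has an irreducible character over `l` of degree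
divisible by `|Y : P_J| θ(1)`.
-/

set_option autoImplicit false
set_option linter.unusedSectionVars false

open scoped ComplexConjugate Pointwise

namespace Cfsg.Agent.H297.RIM

open Cfsg Cfsg.Agent.Characters CoxeterSystem Cfsg.Agent.ChevalleyStructure.CoxeterGeom Cfsg.Agent.Tits.Roots
  Cfsg.Agent.Tits.Core Cfsg.Agent.Tits.Exchange Cfsg.Agent.Nodes.Reps Cfsg.Agent.Nodes.BNOf Cfsg.Agent.Nodes.StabComb
  Cfsg.Agent.Nodes.Bruhat Cfsg.Agent.Nodes.OppDec Cfsg.Agent.Nodes.LeviDec Cfsg.Agent.H53.HC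
  Cfsg.Agent.OddOrderCharacters.IndRes

section grp

variable {G : Type*} [Group G]

/-- **Extension by a central subgroup.** `M` a subgroup, `Z` central, `θ ∈ Irr(M)` over `l` on `M ∩ Z`. -/
theorem exists_ext_central [Finite G] {M Z : Subgroup G} (hZ : Z ≤ Subgroup.center G) {θ : M → ℂ}
    (hθ : IsIrrCharacter M θ) (l : Z →* ℂˣ)
    (hl : ∀ (z : G) (hz : z ∈ Z) (hm : z ∈ M), θ ⟨z, hm⟩ = θ 1 * (l ⟨z, hz⟩ : ℂ)) :
    ∃ ψ : ↥(M ⊔ Z) → ℂ, IsIrrCharacter _ ψ ∧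
      ∀ (a : G) (ha : a ∈ M) (b : G) (hb : b ∈ Z) (hab : a * b ∈ M ⊔ Z), ψ ⟨a * b, hab⟩ = θ ⟨a, ha⟩ * (l ⟨b, hb⟩ : ℂ) := by
  classical
  have : Fintype G := Fintype.ofFinite G
  have hc : ∀ a ∈ M, ∀ b ∈ Z, a * b = b * a := fun a _ b hb => Subgroup.mem_center_iff.1 (hZ hb) a
  let f : M × Z →* ↥(M ⊔ Z) :=
    { toFun := fun x => ⟨x.1 * x.2, mul_mem (le_sup_left (b := Z) x.1.2) (le_sup_right (a := M) x.2.2)⟩
      map_one' := by
        apply Subtype.ext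
        simp
      map_mul' := by
        rintro ⟨a, b⟩ ⟨c, d⟩
        apply Subtype.ext
        change (a * c : G) * (b * d) = (a * b) * (c * d)
        have := hc c c.2 b b.2
        calc (a * c : G) * (b * d) = a * (c * b) * d := by group
          _ = a * (b * c) * d := by rw [this]
          _ = (a * b) * (c * d) := by group }
  have hf : Function.Surjective f := by
    rintro ⟨x, hx⟩
    have hle : M ≤ Subgroup.normalizer (Z : Set G) := by
      intro a _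
      rw [Subgroup.mem_normalizer_iff]
      intro b
      constructor
      · intro hb
        have h1 : a * b * a⁻¹ = b := by
          rw [Subgroup.mem_center_iff.1 (hZ hb) a, mul_inv_cancel_right]
        rw [h1]; exact hb
      · intro hb
        have h1 := Subgroup.mem_center_iff.1 (hZ hb) a⁻¹
        have h2 : b = a * b * a⁻¹ := by
          have h3 : a⁻¹ * (a * b * a⁻¹) = (a * b * a⁻¹) * a⁻¹ := h1
          have h4 : b * a⁻¹ = (a * b * a⁻¹) * a⁻¹ := by rw [← h3]; group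
          exact mul_right_cancel h4
        rw [h2]
        exact hb
    have h1 : x ∈ ((M ⊔ Z : Subgroup G) : Set G) := hx
    rw [Subgroup.coe_mul_of_left_le_normalizer_right _ _ hle] at h1
    obtain ⟨a, ha, b, hb, rfl⟩ := h1
    exact ⟨(⟨a, ha⟩, ⟨b, hb⟩), rfl⟩
  have hβ : IsIrrCharacter Z (fun z => (l z : ℂ)) := Cfsg.Agent.CharDeep.LinearChar.isIrrCharacter_of_hom l
  have hirr : IsIrrCharacter (M × Z) (fun x => θ x.1 * (l x.2 : ℂ)) := Cfsg.Agent.S0188.isIrr_outer hθ hβ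
  obtain ⟨ψ, hψ, hψf⟩ := Cfsg.Agent.OddOrderCharacters.PF9.Reducible.exists_of_surjective f hf hirr (by
    rintro ⟨a, b⟩ hab
    have h1 : (a : G) * b = 1 := congrArg Subtype.val hab
    have h2 : (a : G) = (b : G)⁻¹ := eq_inv_of_mul_eq_one_left h1
    have haZ : (a : G) ∈ Z := by
      rw [h2]
      exact inv_mem b.2
    have h3 := hl a haZ a.2
    have e1 : (⟨(a : G), haZ⟩ : Z) = b⁻¹ := Subtype.ext h2
    rw [e1] at h3
    change θ a * (l b : ℂ) = θ 1 * (l 1 : ℂ)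
    rw [show θ a = _ from h3, map_inv, map_one, mul_assoc, ← Units.val_mul, inv_mul_cancel])
  exact ⟨ψ, hψ, fun a ha b hb _ => hψf (⟨a, ha⟩, ⟨b, hb⟩)⟩

end grp

section rgd

variable {I : Type*} {W : Type*} {Y : Type*} [Fintype I] [DecidableEq I] [Group W] [Group Y] {M : CoxeterMatrix I}
  {cs : CoxeterSystem M W} {A : I → I → ℤ} {h : IsCartan M A} {p : ℕ} {T : Subgroup Y} {n : I → Y}
  {X : (I → ℤ) → Subgroup Y} (R : RGD cs h p T n X)

include R

/-- **Irreducible characters over a character of a central subgroup** of a group with a root group datum, from the cuspidal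
characters of `M_J`. -/
theorem exists_irr_over [Finite W] [Fintype Y] (hG : GG cs h T X = ⊤) (J : Set I) {Z : Subgroup Y} (hZT : Z ≤ T)
    (hZ : Z ≤ Subgroup.center Y) (l : Z →* ℂˣ) {θ : ↥(MJ cs h X J) → ℂ} (hθ : IsIrrCharacter _ θ)
    (hl : ∀ (z : Y) (hz : z ∈ Z) (hm : z ∈ MJ cs h X J), θ ⟨z, hm⟩ = θ 1 * (l ⟨z, hz⟩ : ℂ))
    (hc : ∀ i ∈ J, ∀ [Fintype (rad cs h X J i)], ∑ u : rad cs h X J i, θ ⟨u, rad_le_MJ J i u.2⟩ = 0)
    (hs : ∀ w g (hg : Rp cs R.nsys w g), w ∉ WJ cs J → ∀ hw : Perm cs h J w,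
      ∃ (m : Y) (hm : m ∈ MJ cs h X J), θ ⟨g⁻¹ * m * g, conj_mem_MJ R hg hw hm⟩ ≠ θ ⟨m, hm⟩) :
    ∃ χ : Y → ℂ, IsIrrCharacter Y χ ∧ (∀ z : Z, χ z = χ 1 * (l z : ℂ)) ∧
      ∃ k : ℕ, 0 < k ∧ χ 1 = (PJ cs h T X J).index * (k * θ 1) := by
  classical
  -- the extension to `M_J Z`
  obtain ⟨θ', hθ', hθl⟩ := exists_ext_central hZ hθ l hl
  have hZL : Z ≤ LJ cs h T X J := le_trans hZT T_le_LJ
  have hN : MJ cs h X J ⊔ Z ≤ LJ cs h T X J := sup_le (MJ_le_LJ J) hZL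
  have hθM : ∀ (m : Y) (hm : m ∈ MJ cs h X J), θ' ⟨m, le_sup_left (b := Z) hm⟩ = θ ⟨m, hm⟩ := by
    intro m hm
    have h1 := hθl m hm 1 (one_mem _) (by rw [mul_one]; exact le_sup_left (b := Z) hm)
    have h2 : (⟨m * 1, by rw [mul_one]; exact le_sup_left (b := Z) hm⟩ : ↥(MJ cs h X J ⊔ Z)) =
      ⟨m, le_sup_left (b := Z) hm⟩ := Subtype.ext (mul_one m)
    rw [h2] at h1
    rw [h1]
    have h3 : (⟨1, one_mem _⟩ : Z) = 1 := rfl
    rw [h3, map_one, Units.val_one, mul_one]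
  have hθZ : ∀ (z : Y) (hz : z ∈ Z), θ' ⟨z, le_sup_right (a := MJ cs h X J) hz⟩ = θ 1 * (l ⟨z, hz⟩ : ℂ) := by
    intro z hz
    have h1 := hθl 1 (one_mem _) z hz (by rw [one_mul]; exact le_sup_right (a := MJ cs h X J) hz)
    have h2 : (⟨1 * z, by rw [one_mul]; exact le_sup_right (a := MJ cs h X J) hz⟩ : ↥(MJ cs h X J ⊔ Z)) =
      ⟨z, le_sup_right (a := MJ cs h X J) hz⟩ := Subtype.ext (one_mul z)
    rw [h2] at h1
    exact h1
  have hnN : LJ cs h T X J ≤ Subgroup.normalizer ((MJ cs h X J ⊔ Z : Subgroup Y) : Set Y) := by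
    intro g hg
    have key : ∀ g : Y, g ∈ LJ cs h T X J → ∀ x ∈ MJ cs h X J ⊔ Z, g * x * g⁻¹ ∈ MJ cs h X J ⊔ Z := by
      intro g hg x hx
      have hgM := Subgroup.mem_normalizer_iff.1 (LJ_le_normalizer_MJ R J hg)
      have h1 : MJ cs h X J ⊔ Z ≤ (MJ cs h X J ⊔ Z).comap (MulAut.conj g).toMonoidHom := by
        refine sup_le ?_ ?_
        · intro m hm
          show g * m * g⁻¹ ∈ MJ cs h X J ⊔ Z
          exact le_sup_left (b := Z) ((hgM m).1 hm)
        · intro z hz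
          show g * z * g⁻¹ ∈ MJ cs h X J ⊔ Z
          have h2 : g * z * g⁻¹ = z := by
            rw [Subgroup.mem_center_iff.1 (hZ hz) g, mul_inv_cancel_right]
          rw [h2]
          exact le_sup_right (a := MJ cs h X J) hz
      exact h1 hx
    rw [Subgroup.mem_normalizer_iff]
    intro x
    refine ⟨fun hx => key g hg x hx, fun hx => ?_⟩
    have h1 := key g⁻¹ (inv_mem hg) _ hx
    have h2 : g⁻¹ * (g * x * g⁻¹) * g⁻¹⁻¹ = x := by group
    rwa [h2] at h1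
  obtain ⟨ψ, hψ, ⟨k, hk, hk1⟩, c, s, hres, hsφ⟩ := exists_over hN hnN hθ'
  have h10 : θ' 1 = θ 1 := hθM 1 (one_mem _)
  -- `ψ` lies over `l`
  have hφZ : ∀ φ ∈ s, ∀ (z : Y) (hz : z ∈ Z), φ ⟨z, le_sup_right (a := MJ cs h X J) hz⟩ = θ 1 * (l ⟨z, hz⟩ : ℂ) := by
    intro φ hφ z hz
    obtain ⟨g, hg, hgφ⟩ := hsφ φ hφ
    obtain ⟨hx', e⟩ := hgφ z (le_sup_right (a := MJ cs h X J) hz)
    rw [e, ← hθZ z hz]
    congr 1
    apply Subtype.ext
    show g * z * g⁻¹ = z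
    rw [Subgroup.mem_center_iff.1 (hZ hz) g, mul_inv_cancel_right]
  have hψZ : ∀ (z : Y) (hz : z ∈ Z), ψ ⟨z, hZL hz⟩ = ψ 1 * (l ⟨z, hz⟩ : ℂ) := by
    intro z hz
    have h1 := hres ⟨z, le_sup_right (a := MJ cs h X J) hz⟩
    have h2 := hres 1
    have h3 : ∀ (z : Y) (hz : z ∈ Z), ∑ φ ∈ s, φ ⟨z, le_sup_right (a := MJ cs h X J) hz⟩ =
        s.card * (θ 1 * (l ⟨z, hz⟩ : ℂ)) := by
      intro z hz
      rw [Finset.sum_congr rfl fun φ hφ => hφZ φ hφ z hz, Finset.sum_const, nsmul_eq_mul]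
    have h4 := h3 1 (one_mem _)
    have h5 : (⟨1, one_mem _⟩ : Z) = 1 := rfl
    rw [h5, map_one, Units.val_one, mul_one] at h4
    have h6 : ∑ φ ∈ s, φ 1 = s.card * θ 1 := h4
    have h7 : ψ ⟨z, hZL hz⟩ = c * (s.card * (θ 1 * (l ⟨z, hz⟩ : ℂ))) := by
      rw [← h3 z hz]
      exact h1
    have h8 : ψ 1 = c * (s.card * θ 1) := by
      rw [← h6]
      exact h2
    rw [h7, h8]
    ring
  obtain ⟨π, hπL, hπV⟩ := exists_projL R J
  have hsur : Function.Surjective π := fun l => ⟨⟨(l : Y), LJ_le_PJ l.2⟩, hπL l l.2⟩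
  obtain ⟨ψ', hψ'⟩ : ∃ ψ' : ↥(PJ cs h T X J) → ℂ, ψ' = ψ ∘ π := ⟨_, rfl⟩
  have hψirr : IsIrrCharacter _ ψ' := by rw [hψ']; exact Core.isIrr_comp π hsur hψ
  have hψL : ∀ (l : Y) (hl : l ∈ LJ cs h T X J), ψ' ⟨l, LJ_le_PJ hl⟩ = ψ ⟨l, hl⟩ := by
    intro l hl
    rw [hψ', Function.comp_apply, hπL]
  have hψV : ∀ (v : Y) (hv : v ∈ VJ cs h X J), ψ' ⟨v, VJ_le_PJ hv⟩ = ψ' 1 := by
    intro v hv
    rw [hψ', Function.comp_apply, hπV v hv, Function.comp_apply, map_one]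
  -- restrictions to `M_J`
  have hinc : ∀ (m : Y), m ∈ MJ cs h X J → m ∈ MJ cs h X J ⊔ Z := fun m hm => le_sup_left (b := Z) hm
  obtain ⟨r, hr⟩ : ∃ r : (↥(MJ cs h X J ⊔ Z) → ℂ) → (↥(MJ cs h X J) → ℂ),
      ∀ φ (m : Y) (hm : m ∈ MJ cs h X J), r φ ⟨m, hm⟩ = φ ⟨m, hinc m hm⟩ := ⟨fun φ m => φ ⟨m, hinc m m.2⟩, fun _ _ _ => rfl⟩
  have hres' : ∀ (m : Y) (hm : m ∈ MJ cs h X J), ψ' ⟨m, LJ_le_PJ (MJ_le_LJ J hm)⟩ = c * ∑ φ ∈ s, r φ ⟨m, hm⟩ := by
    intro m hm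
    rw [hψL]
    refine (hres ⟨m, hinc m hm⟩).trans ?_
    congr 1
    exact Finset.sum_congr rfl fun φ _ => (hr φ m hm).symm
  -- the conjugates are conjugates under the torus
  have hsT : ∀ φ ∈ s, ∃ t, ∃ ht : t ∈ T, r φ = θ ∘ conjME (MJ cs h X J) (T_le_normalizer_MJ R J ht) := by
    intro φ hφ
    obtain ⟨g, hg, hgφ⟩ := hsφ φ hφ
    obtain ⟨m, hm, t, ht, rfl⟩ := (mem_LJ_iff_mul' R J).1 hg
    refine ⟨t, ht, ?_⟩
    funext x
    obtain ⟨hx', e⟩ := hgφ x (hinc x x.2)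
    have hx'' : m * t * x * (m * t)⁻¹ ∈ MJ cs h X J :=
      (Subgroup.mem_normalizer_iff.1 (LJ_le_normalizer_MJ R J hg) x).1 x.2
    have e0 : r φ x = θ ⟨m * t * x * (m * t)⁻¹, hx''⟩ := by
      rw [← hθM]
      exact (hr φ x x.2).trans e
    rw [e0, Function.comp_apply]
    have h1 := Core.isIrr_isClassFunction hθ (conjME (MJ cs h X J) (T_le_normalizer_MJ R J ht) x) ⟨m, hm⟩
    rw [← h1]
    congr 1
    apply Subtype.ext
    simp only [conjME_coe, Subgroup.coe_mul, InvMemClass.coe_inv]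
    group
  have hvan : ∀ i ∈ J, ∀ [Fintype (rad cs h X J i)], ∑ u : rad cs h X J i, ψ' ⟨u, rad_le_PJ J i u.2⟩ = 0 := by
    intro i hi hf
    have h1 : ∀ u : rad cs h X J i, ψ' ⟨u, rad_le_PJ J i u.2⟩ = c * ∑ φ ∈ s, r φ ⟨u, rad_le_MJ J i u.2⟩ :=
      fun u => hres' u (rad_le_MJ J i u.2)
    rw [Finset.sum_congr rfl fun u _ => h1 u, ← Finset.mul_sum, Finset.sum_comm]
    rw [Finset.sum_eq_zero, mul_zero]
    intro φ hφ
    obtain ⟨t, ht, e⟩ := hsT φ hφ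
    rw [e, ← hc i hi]
    exact Fintype.sum_equiv (conjME (rad cs h X J i) (T_le_normalizer_rad R J i ht)).toEquiv _ _ fun u => rfl
  have hψ'Z : ∀ (z : Y) (hz : z ∈ Z), ψ' ⟨z, LJ_le_PJ (hZL hz)⟩ = ψ' 1 * (l ⟨z, hz⟩ : ℂ) := by
    intro z hz
    rw [hψL z (hZL hz), hψZ z hz]
    congr 1
    exact (hψL 1 (one_mem _)).symm
  refine ⟨indFun (PJ cs h T X J) ψ', ?_, ?_, k, hk, ?_⟩
  · refine isIrr_indFun_rgd R hG J hψirr hψV hvan ?_
    intro w g hg hw hp
    have hgn := inv_mem (rp_mem_normalizer_MJ R hg hp)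
    refine ⟨MJ cs h X J, le_trans (MJ_le_LJ J) LJ_le_PJ,
      fun l hl => LJ_le_PJ (MJ_le_LJ J (conj_mem_MJ R hg hp hl)), ?_⟩
    intro hf
    have h1 : ∀ l : MJ cs h X J, ψ' ⟨l, LJ_le_PJ (MJ_le_LJ J l.2)⟩ *
        conj (ψ' ⟨g⁻¹ * l * g, LJ_le_PJ (MJ_le_LJ J (conj_mem_MJ R hg hp l.2))⟩) =
        ∑ φ ∈ s, ∑ φ' ∈ s, (c * conj c) * (r φ l * conj ((r φ' ∘ conjME (MJ cs h X J) hgn) l)) := by
      intro l
      have e2 : (⟨g⁻¹ * l * g, conj_mem_MJ R hg hp l.2⟩ : MJ cs h X J) = conjME (MJ cs h X J) hgn l := by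
        apply Subtype.ext
        rw [conjME_coe, inv_inv]
      rw [hres' l l.2, hres' _ (conj_mem_MJ R hg hp l.2), e2, map_mul, map_sum]
      simp only [← Finset.mul_sum, Function.comp_apply]
      rw [← Finset.sum_mul]
      ring
    rw [Finset.sum_congr rfl fun l _ => h1 l, Finset.sum_comm]
    refine Finset.sum_eq_zero fun φ hφ => ?_
    rw [Finset.sum_comm]
    refine Finset.sum_eq_zero fun φ' hφ' => ?_
    rw [← Finset.mul_sum]
    obtain ⟨t, ht, e1⟩ := hsT φ hφ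
    obtain ⟨t', ht', e1'⟩ := hsT φ' hφ'
    rw [e1, e1']
    have hne : θ ∘ conjME (MJ cs h X J) (T_le_normalizer_MJ R J ht) ≠
        (θ ∘ conjME (MJ cs h X J) (T_le_normalizer_MJ R J ht')) ∘ conjME (MJ cs h X J) hgn := by
      intro he
      have hg' : Rp cs R.nsys w (t * g * t'⁻¹) := by
        have h2 := ((rp_of_mem (cs := cs) (hN := R.nsys) ht).mul hg).mul
          (rp_of_mem (cs := cs) (hN := R.nsys) (inv_mem ht'))
        rwa [one_mul, mul_one] at h2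
      obtain ⟨m, hm, hne⟩ := hs w _ hg' hw hp
      apply hne
      have h3 := congrFun he (conjME (MJ cs h X J) (inv_mem (T_le_normalizer_MJ R J ht)) ⟨m, hm⟩)
      simp only [Function.comp_apply] at h3
      refine Eq.trans ?_ (h3.symm.trans ?_)
      · congr 1
        apply Subtype.ext
        simp only [conjME_coe]
        group
      · congr 1
        apply Subtype.ext
        simp only [conjME_coe]
        group
    have hi1 : IsIrrCharacter _ (θ ∘ conjME (MJ cs h X J) (T_le_normalizer_MJ R J ht)) :=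
      Core.isIrr_comp (conjME _ (T_le_normalizer_MJ R J ht)).toMonoidHom (MulEquiv.surjective _) hθ
    have hi2 : IsIrrCharacter _ (θ ∘ conjME (MJ cs h X J) (T_le_normalizer_MJ R J ht')) :=
      Core.isIrr_comp (conjME _ (T_le_normalizer_MJ R J ht')).toMonoidHom (MulEquiv.surjective _) hθ
    have hi3 : IsIrrCharacter _ ((θ ∘ conjME (MJ cs h X J) (T_le_normalizer_MJ R J ht')) ∘
        conjME (MJ cs h X J) hgn) :=
      Core.isIrr_comp (conjME _ hgn).toMonoidHom (MulEquiv.surjective _) hi2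
    have h4 := Core.classInner_irr_ne hi1 hi3 hne
    rw [Core.classInner_def, mul_eq_zero] at h4
    rcases h4 with h4 | h4
    · exact absurd (inv_eq_zero.1 h4) Core.card_ne_zero_complex
    · rw [mul_eq_zero]
      exact Or.inr h4
  · -- the central character
    intro z
    have hcen : ∀ x : Y, x * (z : Y) = z * x := fun x => Subgroup.mem_center_iff.1 (hZ z.2) x
    change (Nat.card (PJ cs h T X J) : ℂ)⁻¹ * ∑ g : Y, extendByZero (PJ cs h T X J) ψ' (g⁻¹ * z * g) =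
      ((Nat.card (PJ cs h T X J) : ℂ)⁻¹ * ∑ g : Y, extendByZero (PJ cs h T X J) ψ' (g⁻¹ * 1 * g)) * (l z : ℂ)
    rw [mul_assoc, Finset.sum_mul]
    congr 1
    refine Finset.sum_congr rfl fun g _ => ?_
    have e1 : g⁻¹ * z * g = z := by rw [mul_assoc, ← hcen g, ← mul_assoc, inv_mul_cancel, one_mul]
    have e2 : g⁻¹ * 1 * g = 1 := by group
    rw [e1, e2]
    unfold extendByZero
    have h1 : Function.extend Subtype.val ψ' (fun _ => (0 : ℂ)) ((⟨z, LJ_le_PJ (hZL z.2)⟩ : PJ cs h T X J) : Y) =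
        ψ' ⟨z, LJ_le_PJ (hZL z.2)⟩ := Subtype.val_injective.extend_apply _ _ _
    have h2 : Function.extend Subtype.val ψ' (fun _ => (0 : ℂ)) ((1 : PJ cs h T X J) : Y) =
        ψ' 1 := Subtype.val_injective.extend_apply _ _ _
    refine h1.trans ?_
    rw [hψ'Z z z.2]
    exact congrArg (· * (l z : ℂ)) h2.symm
  · rw [indFun_one]
    congr 1
    rw [← h10, ← hk1]
    exact hψL 1 (one_mem _)

end rgd

end Cfsg.Agent.H297.RIM
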