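import Mathlib
import Cfsg.Agent.H297.RIM.Swap
import Cfsg.Agent.H622.Levi.NonSwap
import Cfsg.Agent.H886.RIM.GLn
import Cfsg.Agent.H46.RIM.PslOf

/-!
# S4816, TOOL-HC: cuspidal characters of `SL_n(F)`, `n ≥ 4`, with prescribed central character, not invariant under the graph
automorphisms (helper297)

* `exists_sl_over` : constituents of the restriction of a cuspidal character of `GL_n(F)`;
* `not_swap` : non-invariance under `x ↦ C (x^τ)^{-T} C⁻¹`;
* `exists_eta` : the characters.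
-/

set_option autoImplicit false
set_option linter.unusedSectionVars false

open Polynomial Cfsg
open scoped ComplexConjugate

namespace Cfsg.Agent.H297.RIM

open Cfsg.Agent.H139.Cusp Cfsg.Agent.Characters Matrix Cfsg.Agent.H53.HC Cfsg.Agent.H53.HC.Gal Cfsg.Agent.H622.Levi

universe u v w

/-! ### numbers -/

theorem size_lt {q x k N : ℕ} (hq : 2 ≤ q) (hk : k ≤ q - 1) (hN : q ^ 4 ≤ N) (hx : x ^ 2 ≤ N) :
    k * (q - 1) * (1 + x) + 1 < N := by
  obtain ⟨y, rfl⟩ : ∃ y, q = y + 1 := ⟨q - 1, by omega⟩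
  have h1 : k * (y + 1 - 1) ≤ y * y := by
    rw [Nat.add_sub_cancel]
    exact Nat.mul_le_mul_right _ (by omega)
  have h2 : (y * y + 1) ^ 2 < (y + 1) ^ 4 := by
    have : (y + 1) ^ 4 = (y * y + 1) ^ 2 + (4 * y ^ 3 + 4 * y ^ 2 + 4 * y) := by ring
    have h3 : 1 ≤ y := by omega
    rw [this]
    have h4 : 0 < 4 * y := by omega
    omega
  obtain ⟨c, hc⟩ : ∃ c, c = y * y := ⟨_, rfl⟩
  rw [← hc] at h1 h2
  have h3 : k * (y + 1 - 1) * (1 + x) + 1 ≤ c * (1 + x) + 1 := by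
    have := Nat.mul_le_mul_right (1 + x) h1
    omega
  refine lt_of_le_of_lt h3 ?_
  rcases Nat.le_total x (c + 1) with h | h
  · have h5 : c * (1 + x) + 1 ≤ (c + 1) ^ 2 := by
      have h6 := Nat.mul_le_mul_left c (by omega : 1 + x ≤ c + 2)
      have h7 : (c + 1) ^ 2 = c * (c + 2) + 1 := by ring
      omega
    omega
  · rcases Nat.eq_or_lt_of_le h with h' | h'
    · have h5 : c * (1 + x) + 1 ≤ (c + 1) ^ 2 := by
        rw [← h']
        have h7 : (c + 1) ^ 2 = c * (1 + (c + 1)) + 1 := by ring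
        omega
      omega
    · obtain ⟨z, rfl⟩ : ∃ z, x = c + 2 + z := ⟨x - (c + 2), by omega⟩
      have h5 : (c + 2 + z) ^ 2 = (c * (1 + (c + 2 + z)) + 1) + (z ^ 2 + (c + 4) * z + c + 3) := by ring
      have h6 : c * (1 + (c + 2 + z)) + 1 < (c + 2 + z) ^ 2 := by
        rw [h5]
        have : 0 < z ^ 2 + (c + 4) * z + c + 3 := by omega
        omega
      omega

/-- `q = p ^ f`, `n ≥ 4`, `1 ≤ k ≤ q - 1`: `q ^ n - 1` does not divide `k (q - 1) (q ^ i + p ^ j)`. -/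
theorem not_dvd_swap {p f n k : ℕ} (hp : p.Prime) (hf : 0 < f) (hn : 4 ≤ n) (hk0 : 0 < k) (hk : k ≤ p ^ f - 1) (i j : ℕ) :
    ¬ (p ^ f) ^ n - 1 ∣ k * (p ^ f - 1) * ((p ^ f) ^ i + p ^ j) := by
  intro h
  have hp2 := hp.two_le
  have hq2 : 2 ≤ p ^ f := by
    calc 2 ≤ p := hp2
      _ = p ^ 1 := (pow_one p).symm
      _ ≤ _ := Nat.pow_le_pow_right (by omega) hf
  obtain ⟨N, hN⟩ : ∃ N, N = f * n := ⟨_, rfl⟩
  have hN0 : 0 < N := by rw [hN]; exact Nat.mul_pos hf (by omega)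
  have hqn : (p ^ f) ^ n = p ^ N := by rw [hN, pow_mul]
  have hbig : 1 < p ^ N := Nat.one_lt_pow hN0.ne' hp.one_lt
  rw [hqn, ← pow_mul] at h
  obtain ⟨c, hc⟩ : ∃ c, c = k * (p ^ f - 1) := ⟨_, rfl⟩
  rw [← hc] at h
  have hc0 : 0 < c := by rw [hc]; exact Nat.mul_pos hk0 (by omega)
  have hcop : ∀ a, (p ^ N - 1).Coprime (p ^ a) := by
    intro a
    apply Nat.Coprime.pow_right
    rw [Nat.coprime_comm, Nat.Prime.coprime_iff_not_dvd hp]
    intro hd
    have h1 : p ∣ p ^ N := dvd_pow_self p hN0.ne'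
    have h2 := (Nat.dvd_sub h1 hd)
    rw [Nat.sub_sub_self hbig.le] at h2
    exact hp.one_lt.ne' (Nat.dvd_one.1 h2)
  -- reduce to `c (1 + p ^ s)`
  have h1 : ∃ s, p ^ N - 1 ∣ c * (1 + p ^ s) := by
    rcases Nat.le_total (f * i) j with h1 | h1
    · refine ⟨j - f * i, ?_⟩
      have e : c * (p ^ (f * i) + p ^ j) = p ^ (f * i) * (c * (1 + p ^ (j - f * i))) := by
        have : p ^ j = p ^ (f * i) * p ^ (j - f * i) := by rw [← pow_add]; congr 1; omega
        rw [this]; ring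
      rw [e] at h
      exact (hcop _).dvd_of_dvd_mul_left h
    · refine ⟨f * i - j, ?_⟩
      have e : c * (p ^ (f * i) + p ^ j) = p ^ j * (c * (1 + p ^ (f * i - j))) := by
        have : p ^ (f * i) = p ^ j * p ^ (f * i - j) := by rw [← pow_add]; congr 1; omega
        rw [this]; ring
      rw [e] at h
      exact (hcop _).dvd_of_dvd_mul_left h
  have hmod : ∀ a b : ℕ, p ^ N - 1 ∣ c * (1 + p ^ (N * a + b)) → p ^ N - 1 ∣ c * (1 + p ^ b) := by
    intro a b h2
    have h3 : p ^ (N * a + b) ≡ p ^ b [MOD p ^ N - 1] := by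
      have h4 : p ^ N ≡ 1 [MOD p ^ N - 1] := (Nat.modEq_iff_dvd' hbig.le).2 dvd_rfl |>.symm
      rw [pow_add, pow_mul]
      simpa using (h4.pow a).mul_right (p ^ b)
    have h5 : c * (1 + p ^ (N * a + b)) ≡ c * (1 + p ^ b) [MOD p ^ N - 1] := (h3.add_left 1).mul_left c
    exact (Nat.modEq_zero_iff_dvd.1 (h5.symm.trans (Nat.modEq_zero_iff_dvd.2 h2)))
  obtain ⟨s, hs⟩ := h1
  have h2 : ∃ s, 2 * s ≤ N ∧ p ^ N - 1 ∣ c * (1 + p ^ s) := by
    have h3 := hmod (s / N) (s % N) (by rwa [Nat.div_add_mod])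
    have h4 : s % N < N := Nat.mod_lt _ hN0
    rcases Nat.le_total (2 * (s % N)) N with h5 | h5
    · exact ⟨s % N, h5, h3⟩
    · refine ⟨N - s % N, by omega, ?_⟩
      have h6 : p ^ N - 1 ∣ p ^ (N - s % N) * (c * (1 + p ^ (s % N))) := h3.mul_left _
      have e : p ^ (N - s % N) * (c * (1 + p ^ (s % N))) = c * (p ^ (N - s % N) + p ^ (N * 1 + 0)) := by
        have : p ^ (N * 1 + 0) = p ^ (N - s % N) * p ^ (s % N) := by rw [← pow_add]; congr 1; omega
        rw [this]; ring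
      rw [e] at h6
      have h7 : c * (p ^ (N - s % N) + p ^ (N * 1 + 0)) ≡ c * (p ^ (N - s % N) + 1) [MOD p ^ N - 1] := by
        have h4 : p ^ N ≡ 1 [MOD p ^ N - 1] := (Nat.modEq_iff_dvd' hbig.le).2 dvd_rfl |>.symm
        have h8 : p ^ (N * 1 + 0) ≡ 1 [MOD p ^ N - 1] := by simpa using h4
        exact (h8.add_left _).mul_left c
      have h9 := Nat.modEq_zero_iff_dvd.1 (h7.symm.trans (Nat.modEq_zero_iff_dvd.2 h6))
      rwa [add_comm] at h9
  obtain ⟨s, hs1, hs2⟩ := h2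
  have h3 : c * (1 + p ^ s) + 1 < p ^ N := by
    rw [hc]
    refine size_lt hq2 hk ?_ ?_
    · rw [← hqn]
      exact Nat.pow_le_pow_right (by omega) hn
    · rw [← pow_mul]
      exact Nat.pow_le_pow_right (by omega) (by omega)
  have h4 := Nat.le_of_dvd (Nat.mul_pos hc0 (by positivity)) hs2
  omega

/-! ### restriction to `SL_n` -/

section restr

open Cfsg.Agent.Characters.Core Cfsg.Agent.Characters.Linear

/-- **Restriction to a normal subgroup with a central character** (the constituent is a constituent of the restriction). -/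
theorem exists_irr_restr {G : Type u} [Group G] [Finite G] (N Z : Subgroup G) [hN : N.Normal]
    (hZ : ∀ z ∈ Z, ∀ g, z * g = g * z) {χ : G → ℂ} (hχ : IsIrrCharacter G χ) (μ : Z →* ℂˣ)
    (hμ : ∀ (z : Z) (g : G), χ (z * g) = μ z * χ g) {d : ℕ} (hd : χ 1 = d) :
    ∃ (θ : N → ℂ) (e t : ℕ), IsIrrCharacter N θ ∧ IsCharacter N ((fun n : N => χ n) - θ) ∧ θ 1 = e ∧ e * t = d ∧
      t ∣ (N ⊔ Z).index ∧ ∀ (z : G) (hzN : z ∈ N) (hzZ : z ∈ Z), θ ⟨z, hzN⟩ = θ 1 * μ ⟨z, hzZ⟩ := by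
  classical
  have hZn : Z.Normal := ⟨fun z hz g => by rw [← hZ z hz g, mul_inv_cancel_right]; exact hz⟩
  let M : Subgroup G := N ⊔ Z
  have hMn : M.Normal := Subgroup.sup_normal N Z
  have := Fintype.ofFinite G
  have := Fintype.ofFinite M
  have hres : IsCharacter M (fun n : M => χ n) := isCharacter_comp M.subtype (isIrr_isCharacter hχ)
  have h0 : (fun n : M => χ n) ≠ 0 := by
    intro h
    have := congrFun h 1
    exact isIrr_apply_one_ne_zero hχ this
  obtain ⟨θ, hθ, hne⟩ := Cfsg.Agent.H113.NormTwoChar.exists_constituent hres h0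
  obtain ⟨e, he0, he⟩ := isIrr_apply_one hθ
  obtain ⟨h1, h2⟩ := Cfsg.Agent.S0887.result M χ hχ θ hθ hne d e hd he
  have hsub : IsCharacter M ((fun n : M => χ n) - θ) :=
    Cfsg.Agent.OddOrderCharacters.Clifford.isCharacter_sub_irr hres hθ hne
  -- the central character of `θ`
  have hNM : N ≤ M := le_sup_left
  have hZM : Z ≤ M := le_sup_right
  have hcen : ∀ (z : G) (hz : z ∈ Z), θ ⟨z, hZM hz⟩ = μ ⟨z, hz⟩ * θ 1 := by
    intro z hz
    by_contra hcon
    apply hne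
    have hZ' : ∀ z ∈ Z.subgroupOf M, ∀ g, z * g = g * z := fun z hz g => Subtype.ext (hZ z hz g)
    let μ' : Z.subgroupOf M →* ℂˣ := μ.comp (Subgroup.subgroupOfEquivOfLe hZM).toMonoidHom
    exact H115.HC.CuspCentral.classInner_eq_zero hθ (Z.subgroupOf M) hZ' μ' (Φ := fun n : M => χ n)
      (fun z x => hμ ⟨z.1.1, z.2⟩ x.1) (z := ⟨⟨z, hZM hz⟩, hz⟩) hcon
  -- `N × Z → M`
  let f : N × Z →* M :=
    { toFun := fun x => ⟨x.1.1 * x.2.1, M.mul_mem (hNM x.1.2) (hZM x.2.2)⟩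
      map_one' := Subtype.ext (by simp)
      map_mul' := fun x y => Subtype.ext (by
        change x.1.1 * y.1.1 * (x.2.1 * y.2.1) = x.1.1 * x.2.1 * (y.1.1 * y.2.1)
        rw [mul_assoc, mul_assoc, ← mul_assoc y.1.1, ← hZ x.2.1 x.2.2 y.1.1, mul_assoc]) }
  have hf : Function.Surjective f := by
    rintro ⟨m, hm⟩
    obtain ⟨n, hn, z, hz, rfl⟩ := Subgroup.mem_sup_of_normal_left.1 hm
    exact ⟨(⟨n, hn⟩, ⟨z, hz⟩), rfl⟩
  obtain ⟨φ, ψ, hφ, hψ, hfp⟩ := (Cfsg.Agent.S0188.result _).1 (isIrr_comp f hf hθ)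
  have hval : ∀ (n : N) (z : Z), θ (f (n, z)) = φ n * ψ z := fun n z => congrFun hfp (n, z)
  have hφ0 : φ 1 ≠ 0 := isIrr_apply_one_ne_zero hφ
  have hf1 : ∀ z : Z, f (1, z) = ⟨z, hZM z.2⟩ := fun z => Subtype.ext (one_mul _)
  have hψ1 : ∀ z, ψ z = ψ 1 * μ z := by
    intro z
    have e1 := hval 1 z
    have e2 := hval 1 1
    rw [hf1] at e1 e2
    rw [hcen z z.2] at e1
    have e3 : (⟨((1 : Z) : G), hZM (1 : Z).2⟩ : M) = 1 := rfl
    rw [e3] at e2
    rw [e2] at e1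
    apply mul_left_cancel₀ hφ0
    rw [← e1]
    ring
  have hψone : ψ 1 = 1 := by
    obtain ⟨k, hk0, hk⟩ := isIrr_apply_one hψ
    have := Fintype.ofFinite Z
    have e1 := classInner_irr_self hψ
    have e2 : ψ = ψ 1 • fun z => (μ z : ℂ) := by
      funext z
      rw [Pi.smul_apply, smul_eq_mul]
      exact hψ1 z
    have e3 := classInner_irr_self (isIrrCharacter_hom μ)
    rw [e2, classInner_smul_left, classInner_smul_right, e3, hk] at e1
    have e4 : (k : ℂ) * (k : ℂ) = 1 := by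
      rw [← e1, mul_one]
      simp
    have e5 : k * k = 1 := by exact_mod_cast e4
    rw [hk, Nat.eq_one_of_mul_eq_one_right e5, Nat.cast_one]
  have hφN : ∀ n : N, φ n = θ ⟨n, hNM n.2⟩ := by
    intro n
    have e1 := hval n 1
    rw [hψone, mul_one] at e1
    rw [← e1]
    congr 1
    exact Subtype.ext (mul_one _)
  refine ⟨φ, e, d / e, hφ, ?_, ?_, Nat.mul_div_cancel' h1, h2, ?_⟩
  · have h3 := isCharacter_comp (Subgroup.inclusion hNM) hsub
    have h4 : ((fun n : M => χ n) - θ) ∘ (Subgroup.inclusion hNM) = (fun n : N => χ n) - φ := by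
      funext n
      change χ n - θ ⟨n, hNM n.2⟩ = χ n - φ n
      rw [hφN]
    rwa [h4] at h3
  · rw [hφN, ← he]
    rfl
  · intro z hzN hzZ
    rw [hφN, hφN]
    have e1 := hcen z hzZ
    have e2 : (⟨((1 : N) : G), hNM (1 : N).2⟩ : M) = 1 := rfl
    rw [e2, mul_comm]
    exact e1

variable {m : ℕ} {F : Type u} [Field F] [Finite F]

/-- **Constituents of the restriction to `SL_n`** over a central character. -/
theorem exists_sl_over {Ψ : GL (Fin (m + 1)) F → ℂ} (hm : 1 ≤ m) (hΨ : IsIrrCharacter _ Ψ) (hc : IsCusp Ψ)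
    {μ : Fˣ →* ℂˣ} (hz : ∀ (c : Fˣ) (g), Ψ (GeneralLinearGroup.scalar (Fin (m + 1)) c * g) = μ c * Ψ g) {d : ℕ}
    (hd : Ψ 1 = d) :
    ∃ (η : SpecialLinearGroup (Fin (m + 1)) F → ℂ) (e t : ℕ), IsIrrCharacter _ η ∧
      IsCharacter _ (Ψ ∘ SpecialLinearGroup.toGL - η) ∧
      (∀ (z : SpecialLinearGroup (Fin (m + 1)) F) (c : Fˣ),
        z.1 = Matrix.scalar (Fin (m + 1)) (c : F) → η z = η 1 * μ c) ∧
      (∀ i : Fin m, ∀ [Fintype (UU F i)], ∑ g : UU F i, η g = 0) ∧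
      η 1 = e ∧ e * t = d ∧ t ∣ Nat.gcd (m + 1) (Nat.card F - 1) := by
  classical
  have : Fintype F := Fintype.ofFinite F
  have hinj := Cfsg.Agent.H46.RIM.scalar_injective (F := F) (n := m + 1) (by omega)
  obtain ⟨Z, hZ⟩ : ∃ Z, Z = (GeneralLinearGroup.scalar (R := F) (Fin (m + 1))).range := ⟨_, rfl⟩
  have hZc : ∀ z ∈ Z, ∀ g : GL (Fin (m + 1)) F, z * g = g * z := by
    rw [hZ]
    rintro _ ⟨c, rfl⟩ g
    exact (Subgroup.mem_center_iff.1 (Cfsg.Agent.H886.RIM.scalar_mem_center c) g).symm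
  let e0 : Fˣ ≃* Z := (MonoidHom.ofInjective hinj).trans (MulEquiv.subgroupCongr hZ.symm)
  have he0 : ∀ c, (e0 c : GL (Fin (m + 1)) F) = GeneralLinearGroup.scalar (Fin (m + 1)) c := fun c => rfl
  let ν : Z →* ℂˣ := μ.comp e0.symm.toMonoidHom
  have hν : ∀ (z : Z) (c : Fˣ), (z : GL (Fin (m + 1)) F) = GeneralLinearGroup.scalar (Fin (m + 1)) c → ν z = μ c := by
    intro z c h
    have h1 : z = e0 c := Subtype.ext (h.trans (he0 c).symm)
    rw [h1]
    change μ (e0.symm (e0 c)) = μ c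
    rw [e0.symm_apply_apply]
  let N := (GeneralLinearGroup.det : GL (Fin (m + 1)) F →* Fˣ).ker
  obtain ⟨θ, e, t, h1, h2, h3, h4, h5, h6⟩ := exists_irr_restr N Z hZc hΨ ν (by
    intro z g
    obtain ⟨c, hc'⟩ := e0.surjective z
    subst hc'
    rw [hν _ c (he0 c), he0, hz]) hd
  let f : SpecialLinearGroup (Fin (m + 1)) F →* N := SpecialLinearGroup.toGL.codRestrict _ fun g => by
    rw [MonoidHom.mem_ker]
    apply Units.ext
    exact g.2
  have hf : Function.Surjective f := by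
    rintro ⟨g, hg⟩
    have h7 : (g : Matrix (Fin (m + 1)) (Fin (m + 1)) F).det = 1 := congrArg Units.val hg
    refine ⟨⟨g, h7⟩, Subtype.ext (Units.ext rfl)⟩
  have hcomp : IsCharacter _ (Ψ ∘ SpecialLinearGroup.toGL - θ ∘ f) := isCharacter_comp f h2
  have hη := isIrr_comp f hf h1
  refine ⟨θ ∘ f, e, t, hη, hcomp, ?_, ?_, ?_, h4, ?_⟩
  · intro z c hzc
    have h7 : (f z : GL (Fin (m + 1)) F) = GeneralLinearGroup.scalar (Fin (m + 1)) c := by
      apply Units.ext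
      change z.1 = _
      rw [hzc]
      rfl
    have h8 : (f z : GL (Fin (m + 1)) F) ∈ Z := by rw [hZ, h7]; exact ⟨c, rfl⟩
    have h9 := h6 (f z) (f z).2 h8
    rw [hν _ c h7] at h9
    change θ (f z) = θ (f 1) * _
    rw [map_one]
    exact h9
  · intro i _
    refine sum_eq_zero_of_add (isIrr_isCharacter hη) hcomp (UU F i) ?_
    rw [← sum_UU (isIrr_isClassFunction hΨ) hc i]
    refine Finset.sum_congr rfl fun g _ => ?_
    rw [Pi.sub_apply, add_sub_cancel, Function.comp_apply]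
  · rw [Function.comp_apply, map_one, h3]
  · rw [hZ, Cfsg.Agent.H46.RIM.index_sl (by omega)] at h5
    rwa [Nat.card_eq_fintype_card]

end restr

/-! ### the non-invariance -/

section main

variable {F : Type u} [Field F] [Finite F] {L : Type w} [Field L] [Finite L] [Algebra F L]
  {θ : L →*₀ ℂ} (hθ : Function.Injective θ) {n k : ℕ} (hk : k ≠ 0)

include hθ

theorem no_common (hn : Module.finrank F L = n) {p : ℕ} [Fact p.Prime] [CharP F p] {σ : L ≃+* L} {j : ℕ}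
    (hns : ∀ i j, ¬ Nat.card F ^ n - 1 ∣ k * (Nat.card F - 1) * (Nat.card F ^ i + p ^ j))
    (hσ : ∀ x, σ x = x ^ p ^ j) {Θ' : L →*₀ ℂ}
    (hΘ' : ∀ x, Θ' x = conj (powTheta θ k hk (σ x)))
    [Fintype (SpecialLinearGroup (Fin n) F)]
    (h : classInner (psi (n := n) (F := F) L (powTheta θ k hk) ∘ SpecialLinearGroup.toGL)
      (psi L Θ' ∘ SpecialLinearGroup.toGL) ≠ 0) : False := by
  have hp : p.Prime := Fact.out
  have : Fintype F := Fintype.ofFinite F
  obtain ⟨i, -, hi⟩ := exists_frob_eq hn _ _ h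
  obtain ⟨γ, hγ⟩ := IsCyclic.exists_ofOrder_eq_natCard (α := Lˣ)
  set q := Nat.card F with hqd
  have hnorm : Algebra.norm F ((γ : L) ^ (q - 1)) = 1 := by
    rw [map_pow]
    have h1 : Algebra.norm F (γ : L) ≠ 0 := by
      rw [Ne, Algebra.norm_eq_zero_iff]
      exact γ.ne_zero
    have h3 : (Units.mk0 _ h1) ^ (q - 1) = 1 := by
      rw [hqd, ← Nat.card_units]
      exact pow_card_eq_one'
    exact congrArg Units.val h3
  have h1 := hi _ hnorm
  rw [hΘ', conj_theta_eq, powTheta_apply, powTheta_apply, hσ] at h1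
  have h2 : θ ((γ : L) ^ (k * (q - 1) * (q ^ i + p ^ j))) = 1 := by
    have e1 : k * (q - 1) * (q ^ i + p ^ j) = (q - 1) * q ^ i * k + (q - 1) * p ^ j * k := by ring
    rw [e1, pow_add, map_mul, pow_mul _ ((q - 1) * q ^ i), pow_mul _ ((q - 1) * p ^ j), map_pow θ (_ ^ _) k,
      map_pow θ (_ ^ _) k, pow_mul, pow_mul, ← h1, map_inv₀, inv_pow]
    refine inv_mul_cancel₀ (pow_ne_zero _ ?_)
    rw [Ne, map_eq_zero θ]
    exact pow_ne_zero _ (pow_ne_zero _ γ.ne_zero)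
  have h3 : γ ^ (k * (q - 1) * (q ^ i + p ^ j)) = 1 := by
    apply Units.ext
    rw [Units.val_pow_eq_pow_val, Units.val_one]
    exact hθ (by rw [h2, map_one])
  have h4 := orderOf_dvd_of_pow_eq_one h3
  rw [hγ, Nat.card_units, Module.natCard_eq_pow_finrank (K := F), hn, ← hqd] at h4
  exact hns i j h4

/-- **No invariance under the graph automorphisms.** -/
theorem not_swap (hn : Module.finrank F L = n)
    (hns : ∀ p : ℕ, p.Prime → CharP F p → ∀ i j, ¬ Nat.card F ^ n - 1 ∣ k * (Nat.card F - 1) * (Nat.card F ^ i + p ^ j))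
    {η : SpecialLinearGroup (Fin n) F → ℂ} (hη : IsIrrCharacter _ η)
    (hc : IsCharacter _ (psi (n := n) (F := F) L (powTheta θ k hk) ∘ SpecialLinearGroup.toGL - η))
    (τ : F ≃+* F) (C : GL (Fin n) F) : η ∘ swapHom C τ ≠ η := by
  classical
  intro hinv
  have : Fintype F := Fintype.ofFinite F
  obtain ⟨p, hp'⟩ := CharP.exists F
  have : Fact p.Prime := ⟨CharP.char_is_prime F p⟩
  obtain ⟨j, hj⟩ := exists_frob_pow (p := p) τ
  obtain ⟨σ, hσ, hστ⟩ := exists_ext (L := L) hj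
  obtain ⟨Θ, hΘ⟩ : ∃ Θ, Θ = powTheta θ k hk := ⟨_, rfl⟩
  let Θ₁ : L →*₀ ℂ := Θ.comp (σ : L →+* L).toMonoidWithZeroHom
  have hΘ₁ : ∀ x, Θ (σ x) = Θ₁ x := fun x => rfl
  refine no_common hθ hk hn (hns p Fact.out hp') hσ (Θ' := conjTheta Θ₁) (fun x => by rw [← hΘ]; rfl)
    (inner_ne_zero hη hc ?_)
  rw [← hΘ] at hc
  have h1 : (psi (n := n) (F := F) L Θ ∘ SpecialLinearGroup.toGL) ∘ swapHom C τ =
      psi L (conjTheta Θ₁) ∘ SpecialLinearGroup.toGL := by
    funext x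
    rw [Function.comp_apply, Function.comp_apply, Function.comp_apply, ← psi_inv hn Θ₁, ← map_inv]
    have h2 : psi L Θ (SpecialLinearGroup.toGL (swapHom C τ x)) =
        cuspMat L Θ (((x⁻¹ : SpecialLinearGroup (Fin n) F) : Matrix (Fin n) (Fin n) F).transpose.map τ) := by
      let T : SpecialLinearGroup (Fin n) F := ⟨((x⁻¹ : SpecialLinearGroup (Fin n) F) :
        Matrix (Fin n) (Fin n) F).transpose.map τ, by
          have h3 : (((x⁻¹ : SpecialLinearGroup (Fin n) F) : Matrix (Fin n) (Fin n) F).transpose.map τ).det =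
              τ (((x⁻¹ : SpecialLinearGroup (Fin n) F) : Matrix (Fin n) (Fin n) F).transpose.det) :=
            (RingHom.map_det (τ : F →+* F) _).symm
          rw [h3, Matrix.det_transpose, (x⁻¹).2, map_one]⟩
      have h4 : ((C * SpecialLinearGroup.toGL T * C⁻¹ : GL (Fin n) F) : Matrix (Fin n) (Fin n) F) =
          (swapHom C τ x).1 := by
        rw [coe_swapHom]; rfl
      have h5 := cuspMat_conj Θ C (SpecialLinearGroup.toGL T)
      rw [h4] at h5
      exact h5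
    rw [h2, Matrix.transpose_map, cuspMat_transpose, cuspMat_semilinear hn hστ hΘ₁]
    rfl
  have h2 := Core.isCharacter_comp (swapHom C τ) hc
  have h3 : (psi (n := n) (F := F) L Θ ∘ SpecialLinearGroup.toGL - η) ∘ swapHom C τ =
      psi L (conjTheta Θ₁) ∘ SpecialLinearGroup.toGL - η := by
    rw [← h1]
    funext x
    change (psi L Θ ∘ SpecialLinearGroup.toGL) (swapHom C τ x) - (η ∘ swapHom C τ) x = _
    rw [hinv]
    rfl
  rw [h3] at h2
  exact h2

end main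

/-! ### the characters -/

/-- **Cuspidal characters of `SL_n(F)`** with prescribed central character, not invariant under the graph
automorphisms if `n ≥ 4`. -/
theorem exists_eta {F : Type u} [Field F] [Finite F] {m : ℕ} (hm : 1 ≤ m)
    (l : ↥(Subgroup.center (SpecialLinearGroup (Fin (m + 1)) F)) →* ℂˣ) :
    ∃ (η : SpecialLinearGroup (Fin (m + 1)) F → ℂ) (e t : ℕ), IsIrrCharacter _ η ∧
      (∀ z : ↥(Subgroup.center (SpecialLinearGroup (Fin (m + 1)) F)), η z = η 1 * l z) ∧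
      (∀ i : Fin m, ∀ [Fintype (UU F i)], ∑ g : UU F i, η g = 0) ∧
      η 1 = e ∧ e * t = ∏ i ∈ Finset.range m, (Nat.card F ^ (i + 1) - 1) ∧ t ∣ Nat.gcd (m + 1) (Nat.card F - 1) ∧
      (3 ≤ m → ∀ (τ : F ≃+* F) (C : GL (Fin (m + 1)) F), η ∘ swapHom C τ ≠ η) := by
  classical
  have : Fintype F := Fintype.ofFinite F
  have hq1 : 1 < Nat.card F := Finite.one_lt_card
  obtain ⟨p, hp⟩ := CharP.exists F
  have hpp : p.Prime := CharP.char_is_prime F p
  have : Fact p.Prime := ⟨hpp⟩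
  have : NeZero (m + 1) := ⟨by omega⟩
  let L := FiniteField.Extension F p (m + 1)
  have hL : Module.finrank F L = m + 1 := FiniteField.finrank_extension F p (m + 1)
  -- the linear character of `Fˣ`
  obtain ⟨μ, hμ⟩ : ∃ μ : Fˣ →* ℂˣ, ∀ (z : ↥(Subgroup.center (SpecialLinearGroup (Fin (m + 1)) F))) (c : Fˣ),
      (z : SpecialLinearGroup (Fin (m + 1)) F).1 = Matrix.scalar (Fin (m + 1)) (c : F) → μ c = l z := by
    let j : (powMonoidHom (m + 1) : Fˣ →* Fˣ).ker →* ↥(Subgroup.center (SpecialLinearGroup (Fin (m + 1)) F)) :=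
      (Cfsg.Agent.H46.RIM.scl (m + 1) F).codRestrict _ Cfsg.Agent.H46.RIM.scl_mem
    obtain ⟨μ, hμ⟩ := MonoidHom.domRestrict_surjective (M := ℂ) (powMonoidHom (m + 1) : Fˣ →* Fˣ).ker (l.comp j)
    refine ⟨μ, fun z c hzc => ?_⟩
    have hc : c ∈ (powMonoidHom (m + 1) : Fˣ →* Fˣ).ker := by
      rw [MonoidHom.mem_ker]
      apply Units.ext
      have h1 := (z : SpecialLinearGroup (Fin (m + 1)) F).2
      rw [hzc, Matrix.scalar_apply, det_diagonal, Finset.prod_const, Finset.card_univ, Fintype.card_fin] at h1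
      rw [powMonoidHom_apply, Units.val_pow_eq_pow_val, h1, Units.val_one]
    have h1 : μ c = l (j ⟨c, hc⟩) := DFunLike.congr_fun hμ ⟨c, hc⟩
    rw [h1]
    congr 1
    apply Subtype.ext
    apply Subtype.ext
    rw [hzc]
    rfl
  obtain ⟨θ, hθ⟩ := exists_theta L
  obtain ⟨k, hk1, hk2, hkμ⟩ := Cfsg.Agent.H886.RIM.exists_pow_mu hθ μ
  have hk : k ≠ 0 := by omega
  have hreg : Regular F (m + 1) (powTheta θ k hk) := by
    rw [regular_powTheta_iff hθ hk hL]
    intro i hi hin hd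
    have h4 : 1 < Nat.card F ^ i := Nat.one_lt_pow (by omega) hq1
    have h5 : 0 < k * (Nat.card F ^ i - 1) := Nat.mul_pos (by omega) (by omega)
    have h6 := Nat.le_of_dvd h5 hd
    have h7 : k * (Nat.card F ^ i - 1) ≤ (Nat.card F - 1) * (Nat.card F ^ i - 1) := Nat.mul_le_mul_right _ hk2
    have h8 : Nat.card F ^ (i + 1) ≤ Nat.card F ^ (m + 1) := Nat.pow_le_pow_right (by omega) (by omega)
    have h9 : (Nat.card F - 1) * (Nat.card F ^ i - 1) + (Nat.card F - 1) + Nat.card F ^ i = Nat.card F ^ (i + 1) := by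
      obtain ⟨a, ha⟩ : ∃ a, Nat.card F = a + 1 := ⟨Nat.card F - 1, by omega⟩
      obtain ⟨b, hb⟩ : ∃ b, Nat.card F ^ i = b + 1 := ⟨Nat.card F ^ i - 1, by omega⟩
      rw [pow_succ, hb, ha, Nat.add_sub_cancel, Nat.add_sub_cancel]
      ring
    omega
  obtain ⟨η, e, t, h1, h2, h3, h4, h5, h6, h7⟩ := exists_sl_over (m := m) (μ := μ)
    (Ψ := psi (n := m + 1) (F := F) L (powTheta θ k hk)) (by omega) (psi_isIrr _ hL hreg) (psi_isCusp L _)
    (fun c g => by rw [psi_scalar _ hL c g, powTheta_apply, hkμ c]) (psi_one L _ (by omega))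
  refine ⟨η, e, t, h1, fun z => ?_, h4, h5, h6, h7, fun hm3 => not_swap hθ hk hL ?_ h1 h2⟩
  · have hz := z.2
    rw [Matrix.SpecialLinearGroup.mem_center_iff] at hz
    obtain ⟨r, hr, hz⟩ := hz
    rw [Fintype.card_fin] at hr
    have hu : IsUnit r := IsUnit.of_pow_eq_one hr (by omega)
    have h8 : (z : SpecialLinearGroup (Fin (m + 1)) F).1 = Matrix.scalar (Fin (m + 1)) (hu.unit : F) := hz.symm
    rw [h3 z hu.unit h8, hμ z hu.unit h8]
  · intro p' hp' _ i j
    obtain ⟨f, hf, hq⟩ : ∃ f, 0 < f ∧ Nat.card F = p' ^ f := by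
      obtain ⟨f, -, hf⟩ := FiniteField.card F p'
      exact ⟨f, f.2, by rw [Nat.card_eq_fintype_card, hf]⟩
    rw [hq] at hk2 ⊢
    exact not_dvd_swap hp' hf (by omega) (by omega) hk2 i j

end Cfsg.Agent.H297.RIM
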