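import Mathlib
import Cfsg.Agent.H297.RIM.Over
import Cfsg.Agent.H297.RIM.SLn
import Cfsg.Agent.H643.QO.Cov

/-!
# S4816, TOOL-HC: characters over a central character from the Levi subgroups of type `A_m` (helper297)

* `exists_descend_over` : characters of `SL_{m+1}(F)` and cuspidal characters of `M_J`;
* `exists_irr_chain` : groups with a root group datum, `J` a chain;
* `exists_irr_cover` : central extensions of groups with a root group datum.
-/

set_option autoImplicit false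
set_option linter.unusedSectionVars false

open scoped ComplexConjugate Pointwise commutatorElement

namespace Cfsg.Agent.H297.RIM

open Cfsg Cfsg.Agent.Characters CoxeterSystem Cfsg.Agent.ChevalleyStructure.CoxeterGeom Cfsg.Agent.Tits.Roots
  Cfsg.Agent.Tits.Core Cfsg.Agent.Tits.Exchange Cfsg.Agent.Nodes.Reps Cfsg.Agent.Nodes.BNOf Cfsg.Agent.Nodes.StabComb
  Cfsg.Agent.Nodes.Bruhat Cfsg.Agent.Nodes.OppDec Cfsg.Agent.Nodes.LeviDec Cfsg.Agent.H53.HC
  Cfsg.Agent.Nodes.RGDLift Cfsg.Agent.Nodes.RootsA Cfsg.Agent.Nodes.SubComb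
open Cfsg.Agent.LieRecognition.BNCox (cA)
open Cfsg.Agent.TitsThree.KSideA (tv tv_of_ne tv_add tv_zero tv_neg tv_comm)
open Cfsg.Agent.H622.Levi (Co cr cr_succ cr_neg UU UU_inf_center mem_center_of_ker swapHom)
open Matrix

/-! ### roots -/

section roots

variable {I W : Type*} [Fintype I] [DecidableEq I] [Group W] {M : CoxeterMatrix I}
  {cs : CoxeterSystem M W} {A : I → I → ℤ} {h : IsCartan M A}

theorem rtA_rev {m : ℕ} (a b : Fin (m + 1)) (j : Fin m) : rtA a b (Fin.rev j) = rtA (Fin.rev b) (Fin.rev a) j := by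
  rw [rtA_apply, rtA_apply, Fin.val_rev, Fin.val_rev, Fin.val_rev]
  have ha := a.2
  have hb := b.2
  have hj := j.2
  split_ifs <;> omega

theorem rep_cr_rev {m : ℕ} {k : Fin m → I} {w : W} (hw : ∀ i, rep cs h w (sr (k i)) = sr (k (Fin.rev i)))
    (a b : Fin (m + 1)) : rep cs h w (cr k a b) = cr k (Fin.rev b) (Fin.rev a) := by
  unfold cr
  rw [iota_apply, iota_apply, map_sum]
  rw [← Equiv.sum_comp Fin.revPerm (fun j => rtA (Fin.rev b) (Fin.rev a) j • (sr (k j) : I → ℤ))]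
  refine Finset.sum_congr rfl fun j _ => ?_
  rw [map_smul, hw, Fin.revPerm_apply, ← rtA_rev, Fin.rev_rev]

theorem rep_inv_rev {m : ℕ} {k : Fin m → I} {w : W} (hw : ∀ i, rep cs h w (sr (k i)) = sr (k (Fin.rev i))) (i : Fin m) :
    rep cs h w⁻¹ (sr (k i)) = sr (k (Fin.rev i)) := by
  have h1 := hw (Fin.rev i)
  rw [Fin.rev_rev] at h1
  rw [← h1, ← rep_mul_apply, inv_mul_cancel, map_one, Module.End.one_apply]

end roots

variable {I W Y : Type*} [Fintype I] [DecidableEq I] [Group W] [Group Y] {M : CoxeterMatrix I}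
  {cs : CoxeterSystem M W} {A : I → I → ℤ} {h : IsCartan M A} {p : ℕ} {T : Subgroup Y} {n : I → Y}
  {X : (I → ℤ) → Subgroup Y}

section chain

variable {m : ℕ} {k : Fin m ↪ I} {F : Type} [Field F] {φ : SpecialLinearGroup (Fin (m + 1)) F →* Y}

/-- injectivity on root groups -/
theorem tv_injective (hm : 2 ≤ m) (hker : φ.ker ≤ Subgroup.center (SpecialLinearGroup (Fin (m + 1)) F))
    {a b : Fin (m + 1)} (hab : a ≠ b) : Function.Injective fun t : F => φ (tv a b t) := by
  obtain ⟨c, hac, hbc⟩ : ∃ c : Fin (m + 1), a ≠ c ∧ b ≠ c := by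
    have h1 : ({a, b} : Finset (Fin (m + 1))).card < (Finset.univ : Finset (Fin (m + 1))).card := by
      rw [Finset.card_univ, Fintype.card_fin]
      exact lt_of_le_of_lt Finset.card_le_two (by omega)
    obtain ⟨c, -, hc⟩ := Finset.exists_mem_notMem_of_card_lt_card h1
    simp only [Finset.mem_insert, Finset.mem_singleton, not_or] at hc
    exact ⟨c, Ne.symm hc.1, Ne.symm hc.2⟩
  intro s t hst
  have h2 : (tv a b s)⁻¹ * tv a b t ∈ φ.ker := by
    rw [MonoidHom.mem_ker, map_mul, map_inv]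
    exact inv_mul_eq_one.2 hst
  have h3 := hker h2
  rw [← tv_neg, ← tv_add] at h3
  have h4 : ⁅tv a b (-s + t), tv b c (1 : F)⁆ = 1 := by
    rw [commutatorElement_eq_one_iff_mul_comm]
    exact (Subgroup.mem_center_iff.1 h3 _).symm
  rw [tv_comm hab hbc hac, mul_one] at h4
  have h5 : (tv a c (-s + t) : SpecialLinearGroup (Fin (m + 1)) F).1 a c = (1 : Matrix (Fin (m + 1)) (Fin (m + 1)) F) a c :=
    congrFun (congrFun (congrArg Subtype.val h4) a) c
  rw [val_tv hac, Matrix.add_apply, Matrix.single_apply_same] at h5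
  have h6 := add_eq_left.1 h5
  rw [neg_add_eq_zero] at h6
  exact h6

/-- conjugation of root groups -/
theorem conj_of {k : Fin m → I} (C : Co X k F φ) {g : Y} {a b a' b' : Fin (m + 1)} (hab : a ≠ b) (hab' : a' ≠ b')
    (hg : cj g (X (cr k a b)) = X (cr k a' b')) (s : F) : ∃ t : F, g * φ (tv a b s) * g⁻¹ = φ (tv a' b' t) := by
  have h1 : φ (tv a b s) ∈ X (cr k a b) := by
    have h0 : φ (tv a b s) ∈ (X (cr k a b) : Set Y) := by
      rw [C.root a b hab, tv_of_ne hab]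
      exact ⟨s, rfl⟩
    exact h0
  have h2 : g * φ (tv a b s) * g⁻¹ ∈ (X (cr k a' b') : Set Y) := by
    change _ ∈ X (cr k a' b')
    rw [← hg, mem_cj]
    have : g⁻¹ * (g * φ (tv a b s) * g⁻¹) * g = φ (tv a b s) := by group
    rwa [this]
  rw [C.root a' b' hab'] at h2
  obtain ⟨t, ht⟩ := h2
  exact ⟨t, by rw [tv_of_ne hab']; exact ht.symm⟩

variable [Finite F]

/-- **Descent of characters**, over a central character. -/
theorem exists_descend_over [Finite W] [Finite Y] (C : Co X k F φ) (hk : ∀ i j, M (k i) (k j) = cA m i j) (hm : 1 ≤ m)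
    {Z : Subgroup Y} (hZ : Z ≤ Subgroup.center Y) (l : Z →* ℂˣ)
    {η : SpecialLinearGroup (Fin (m + 1)) F → ℂ} (hη : IsIrrCharacter _ η)
    (l0 : ↥(Subgroup.center (SpecialLinearGroup (Fin (m + 1)) F)) →* ℂˣ)
    (hl0 : ∀ (z : ↥(Subgroup.center (SpecialLinearGroup (Fin (m + 1)) F))) (hz : φ z ∈ Z), l0 z = l ⟨φ z, hz⟩)
    (hz : ∀ z : ↥(Subgroup.center (SpecialLinearGroup (Fin (m + 1)) F)), η z = η 1 * l0 z)
    (hs : ∀ i : Fin m, ∀ [Fintype (UU F i)], ∑ g : UU F i, η g = 0) :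
    ∃ θ : ↥(MJ cs h X (Set.range k)) → ℂ, IsIrrCharacter _ θ ∧
      (∀ (z : Y) (hz : z ∈ Z) (hm : z ∈ MJ cs h X (Set.range k)), θ ⟨z, hm⟩ = θ 1 * (l ⟨z, hz⟩ : ℂ)) ∧
      (∀ i ∈ Set.range k, ∀ [Fintype (rad cs h X (Set.range k) i)],
        ∑ u : rad cs h X (Set.range k) i, θ ⟨u, rad_le_MJ _ i u.2⟩ = 0) ∧
      ∀ (g : SpecialLinearGroup (Fin (m + 1)) F) (x : ↥(MJ cs h X (Set.range k))), (x : Y) = φ g → θ x = η g := by
  have hran : φ.range = MJ cs h X (Set.range k) := C.range hk hm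
  let f : SpecialLinearGroup (Fin (m + 1)) F →* ↥(MJ cs h X (Set.range k)) :=
    φ.codRestrict _ fun g => hran ▸ ⟨g, rfl⟩
  have hf : Function.Surjective f := by
    rintro ⟨y, hy⟩
    rw [← hran] at hy
    obtain ⟨g, rfl⟩ := hy
    exact ⟨g, rfl⟩
  have hfv : ∀ g, (f g : Y) = φ g := fun g => rfl
  obtain ⟨θ, hθ, hv⟩ := OddOrderCharacters.PF9.Reducible.exists_of_surjective f hf hη (by
    intro g hg
    have h1 : g ∈ φ.ker := by
      rw [MonoidHom.mem_ker, ← hfv, hg]
      rfl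
    have h2 := C.ker h1
    have h3 : φ g ∈ Z := by rw [MonoidHom.mem_ker.1 h1]; exact one_mem _
    have h4 := hl0 ⟨g, h2⟩ h3
    have h5 : (⟨φ g, h3⟩ : Z) = 1 := Subtype.ext (MonoidHom.mem_ker.1 h1)
    rw [h5, map_one] at h4
    have h6 := hz ⟨g, h2⟩
    rw [h4, Units.val_one, mul_one] at h6
    exact h6)
  have h1 : θ 1 = η 1 := by rw [← hv, map_one]
  refine ⟨θ, hθ, ?_, ?_, ?_⟩
  · intro z hz' hm'
    obtain ⟨g, hg⟩ := hf ⟨z, hm'⟩
    have hg' : φ g = z := congrArg Subtype.val hg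
    have h2 : g ∈ Subgroup.center (SpecialLinearGroup (Fin (m + 1)) F) := by
      refine mem_center_of_ker hm C.ker fun s => ?_
      rw [hg']
      exact (Subgroup.mem_center_iff.1 (hZ hz') _).symm
    have h3 : φ g ∈ Z := by rw [hg']; exact hz'
    rw [← hg, hv, h1]
    have h4 := hz ⟨g, h2⟩
    rw [hl0 ⟨g, h2⟩ h3] at h4
    refine h4.trans ?_
    congr 3
    exact Subtype.ext hg'
  · rintro _ ⟨i, rfl⟩ _
    classical
    have hfin : Fintype (UU F i) := Fintype.ofFinite _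
    rw [← hs i]
    symm
    have hmem : ∀ g : UU F i, φ g ∈ rad cs h X (Set.range k) (k i) := by
      intro g
      have h2 : φ g ∈ (UU F i).map φ := ⟨g, g.2, rfl⟩
      rw [C.map_UU (cs := cs) (h := h) hk i] at h2
      exact h2
    refine Fintype.sum_bijective (fun g : UU F i => (⟨φ g, hmem g⟩ : rad cs h X (Set.range k) (k i)))
      ⟨?_, ?_⟩ _ _ ?_
    · intro g g' hgg
      have h2 : φ g = φ g' := congrArg Subtype.val hgg
      have h3 : (g : SpecialLinearGroup (Fin (m + 1)) F)⁻¹ * g' ∈ φ.ker := by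
        rw [MonoidHom.mem_ker, map_mul, map_inv, h2, inv_mul_cancel]
      have h4 := UU_inf_center (mul_mem (inv_mem g.2) g'.2) (C.ker h3)
      exact Subtype.ext (inv_mul_eq_one.1 h4)
    · rintro ⟨y, hy⟩
      have h2 : y ∈ (UU F i).map φ := by
        rw [C.map_UU (cs := cs) (h := h) hk i]
        exact hy
      obtain ⟨g, hg, rfl⟩ := h2
      exact ⟨⟨g, hg⟩, rfl⟩
    · intro g
      rw [← hv]
      rfl
  · intro g x hx
    rw [← hv]
    congr 1
    exact Subtype.ext (hx.trans (hfv g).symm)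

/-- the linear character of the centre of `SL_n(F)` -/
theorem exists_l0 {Z : Subgroup Y} (l : Z →* ℂˣ) (φ : SpecialLinearGroup (Fin (m + 1)) F →* Y) :
    ∃ l0 : ↥(Subgroup.center (SpecialLinearGroup (Fin (m + 1)) F)) →* ℂˣ,
      ∀ (z : ↥(Subgroup.center (SpecialLinearGroup (Fin (m + 1)) F))) (hz : φ z ∈ Z), l0 z = l ⟨φ z, hz⟩ := by
  let _ : CommGroup ↥(Subgroup.center (SpecialLinearGroup (Fin (m + 1)) F)) :=
    { (inferInstance : Group ↥(Subgroup.center (SpecialLinearGroup (Fin (m + 1)) F))) with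
      mul_comm := fun a b => Subtype.ext (Subgroup.mem_center_iff.1 b.2 a) }
  let f : ↥(Subgroup.center (SpecialLinearGroup (Fin (m + 1)) F)) →* Y := φ.comp (Subgroup.subtype _)
  let D : Subgroup ↥(Subgroup.center (SpecialLinearGroup (Fin (m + 1)) F)) := Z.comap f
  let j : D →* Z := (f.comp D.subtype).codRestrict Z fun x => x.2
  obtain ⟨l0, hl0⟩ := MonoidHom.domRestrict_surjective (M := ℂ)
    (G := ↥(Subgroup.center (SpecialLinearGroup (Fin (m + 1)) F))) D (l.comp j)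
  exact ⟨l0, fun z hz => DFunLike.congr_fun hl0 ⟨z, hz⟩⟩

end chain

/-- **Irreducible characters over a central character from a chain `J`.** -/
theorem exists_irr_chain [Finite W] [Fintype Y] (R : RGD cs h p T n X) (hG : GG cs h T X = ⊤) {m : ℕ} (hm : 2 ≤ m)
    (k : Fin m ↪ I) (hk : ∀ i j, M (k i) (k j) = cA m i j) {q : ℕ} (i₀ : Fin m) (hq : Nat.card (X (sr (k i₀))) = q)
    {Z : Subgroup Y} (hZT : Z ≤ T) (hZ : Z ≤ Subgroup.center Y) (l : Z →* ℂˣ)
    (hw : ∀ w : W, w ∉ WJ cs (Set.range k) → Perm cs h (Set.range k) w →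
      3 ≤ m ∧ ∀ i, rep cs h w (sr (k i)) = sr (k (Fin.rev i))) :
    ∃ χ : Y → ℂ, IsIrrCharacter Y χ ∧ (∀ z : Z, χ z = χ 1 * (l z : ℂ)) ∧
      ∃ a e t : ℕ, 0 < a ∧ χ 1 = ((PJ cs h T X (Set.range k)).index * (a * e) : ℕ) ∧
        e * t = ∏ i ∈ Finset.range m, (q ^ (i + 1) - 1) ∧ t ∣ Nat.gcd (m + 1) (q - 1) := by
  classical
  obtain ⟨F, _, _, φ, C⟩ := Cfsg.Agent.H622.Levi.exists_co R hm k hk
  have hqF : Nat.card F = q := by rw [← hq]; exact (C.card i₀).symm
  obtain ⟨l0, hl0⟩ := exists_l0 l φ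
  obtain ⟨η, e, t, h1, h2, h3, h4, h5, h6, h7⟩ := exists_eta (F := F) (m := m) (by omega) l0
  obtain ⟨θ, hθ, hθl, hθs, hθη⟩ := exists_descend_over (cs := cs) (h := h) C hk (by omega) hZ l h1 l0 hl0 h2 h3
  have hθ1 : θ 1 = e := (hθη 1 1 (map_one φ).symm).trans h4
  obtain ⟨χ, hχ, hχl, a, ha, hχ1⟩ := exists_irr_over R hG (Set.range k) hZT hZ l hθ hθl hθs (by
    intro w g hg hwJ hwP
    obtain ⟨hm3, hrev⟩ := hw w hwJ hwP
    by_contra hcon
    push Not at hcon
    have hran : φ.range = MJ cs h X (Set.range k) := C.range hk (by omega)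
    have hmem : ∀ x, φ x ∈ MJ cs h X (Set.range k) := fun x => hran ▸ ⟨x, rfl⟩
    obtain ⟨τ, D, hD⟩ := exists_swap (φ := φ) (g := g⁻¹) (by omega) (fun a b hab => tv_injective hm C.ker hab)
      (fun a b hab s => conj_of C hab (fun h => hab (Fin.rev_injective h).symm) (by
        have h8 : cr k a b ∈ RootsJ cs h (Set.range k) :=
          (Cfsg.Agent.H622.Levi.mem_rootsJ (cs := cs) (h := h) hk).2 ⟨a, b, hab, rfl⟩
        rw [R.conj_rp hg.inv h8.1, rep_cr_rev (rep_inv_rev hrev)]) s)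
    refine h7 hm3 τ D ?_
    funext x
    rw [Function.comp_apply, ← hθη x ⟨φ x, hmem x⟩ rfl, ← hcon (φ x) (hmem x)]
    symm
    apply hθη
    rw [← hD x, inv_inv])
  refine ⟨χ, hχ, hχl, a, e, t, ha, ?_, ?_, ?_⟩
  · rw [hχ1, hθ1]
    push_cast
    ring
  · rw [h5, hqF]
  · rw [← hqF]; exact h6

/-! ### covers -/

section cover

variable {E : Type*} [Group E] [Finite E] [Finite W] [Fact p.Prime] {π : E →* Y}

/-- the parabolic subgroups of the lifted datum -/
theorem comap_PJ_le (hc : π.ker ≤ Subgroup.center E) (hk : (Nat.card π.ker).Coprime p) (hs : Function.Surjective π)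
    (R : RGD cs h p T n X) (J : Set I) :
    PJ cs h (T.comap π) (fun x => lft p π (X x)) J = (PJ cs h T X J).comap π := by
  apply le_antisymm
  · refine sup_le (sup_le ?_ (RGD.Sup_le fun x hx => ?_)) (RGD.Sup_le fun x hx => ?_)
    · exact Subgroup.comap_mono (le_trans T_le_LJ LJ_le_PJ)
    · rw [← Subgroup.map_le_iff_le_comap]
      exact le_trans (map_lft_le p π (X x)) (le_trans (RGD.le_Sup hx) (le_trans le_sup_right LJ_le_PJ))
    · rw [← Subgroup.map_le_iff_le_comap]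
      exact le_trans (map_lft_le p π (X x)) (le_trans (RGD.le_Sup hx) VJ_le_PJ)
  · intro y hy
    have hyk : ∀ a ∈ PJ cs h (T.comap π) (fun x => lft p π (X x)) J, π a = π y →
        y ∈ PJ cs h (T.comap π) (fun x => lft p π (X x)) J := by
      intro a ha e
      have h1 : a⁻¹ * y ∈ T.comap π := by
        rw [Subgroup.mem_comap, map_mul, map_inv, e, inv_mul_cancel]
        exact one_mem _
      have h2 : y = a * (a⁻¹ * y) := by group
      rw [h2]
      exact mul_mem ha (LJ_le_PJ (T_le_LJ h1))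
    have h1 : PJ cs h T X J ≤ (PJ cs h (T.comap π) (fun x => lft p π (X x)) J).map π := by
      refine sup_le (sup_le ?_ (RGD.Sup_le fun x hx => ?_)) (RGD.Sup_le fun x hx => ?_)
      · intro t ht
        obtain ⟨t', rfl⟩ := hs t
        exact ⟨t', LJ_le_PJ (T_le_LJ ht), rfl⟩
      · rw [← map_lft hc hk hs (R.pgrp' hx.1)]
        refine Subgroup.map_mono ?_
        exact le_trans (RGD.le_Sup (X := fun x => lft p π (X x)) hx) (le_trans le_sup_right LJ_le_PJ)
      · rw [← map_lft hc hk hs (R.pgrp' hx.1)]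
        refine Subgroup.map_mono ?_
        exact le_trans (RGD.le_Sup (X := fun x => lft p π (X x)) hx) VJ_le_PJ
    obtain ⟨a, ha, e⟩ := h1 hy
    exact hyk a ha e

theorem GG_lift (hc : π.ker ≤ Subgroup.center E) (hk : (Nat.card π.ker).Coprime p) (hs : Function.Surjective π)
    (R : RGD cs h p T n X) (hG : GG cs h T X = ⊤) : GG cs h (T.comap π) (fun x => lft p π (X x)) = ⊤ := by
  rw [eq_top_iff]
  intro y _
  have h0 := Cfsg.Agent.H643.QO.mem_LJ_lift (π := π) hc hk hs R Set.univ (y := y) (by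
    rw [LJ_univ, hG]
    exact Subgroup.mem_top _)
  rwa [LJ_univ] at h0

theorem card_lft (hc : π.ker ≤ Subgroup.center E) (hk : (Nat.card π.ker).Coprime p) (hs : Function.Surjective π)
    {P : Subgroup Y} (hP : IsPGroup p P) : Nat.card (lft p π P) = Nat.card P := by
  have h1 : (lft p π P).map π = P := map_lft hc hk hs hP
  have h2 : Function.Injective ((π.comp (lft p π P).subtype)) := by
    rw [injective_iff_map_eq_one]
    rintro ⟨y, hy⟩ hy1
    exact Subtype.ext (eq_one_of_mem_lft hc hk hP hy hy1)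
  have h3 : (π.comp (lft p π P).subtype).range = P := by
    rw [MonoidHom.range_comp, Subgroup.range_subtype, h1]
  conv_rhs => rw [← h3]
  exact Nat.card_congr (MonoidHom.ofInjective h2).toEquiv

/-- **Irreducible characters of central extensions** over a faithful (or any) linear character of the kernel. -/
theorem exists_irr_cover (hc : π.ker ≤ Subgroup.center E) (hkp : (Nat.card π.ker).Coprime p)
    (hs : Function.Surjective π) (R : RGD cs h p T n X) (hG : GG cs h T X = ⊤) {m : ℕ} (hm : 2 ≤ m)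
    (k : Fin m ↪ I) (hk : ∀ i j, M (k i) (k j) = cA m i j) {q : ℕ} (i₀ : Fin m) (hq : Nat.card (X (sr (k i₀))) = q)
    (l : π.ker →* ℂˣ)
    (hw : ∀ w : W, w ∉ WJ cs (Set.range k) → Perm cs h (Set.range k) w →
      3 ≤ m ∧ ∀ i, rep cs h w (sr (k i)) = sr (k (Fin.rev i))) :
    ∃ χ : E → ℂ, IsIrrCharacter E χ ∧ (∀ z : π.ker, χ z = χ 1 * (l z : ℂ)) ∧
      ∃ a e t : ℕ, 0 < a ∧ charDegree χ = (PJ cs h T X (Set.range k)).index * (a * e) ∧
        e * t = ∏ i ∈ Finset.range m, (q ^ (i + 1) - 1) ∧ t ∣ Nat.gcd (m + 1) (q - 1) := by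
  classical
  have : Fintype E := Fintype.ofFinite E
  obtain ⟨n', hn'⟩ : ∃ n' : I → E, ∀ i, π (n' i) = n i := by
    choose n' hn' using fun i => hs (n i)
    exact ⟨n', hn'⟩
  have R' := rgd_lift hc hkp hs R hn'
  obtain ⟨χ, h1, h2, a, e, t, h3, h4, h5, h6⟩ := exists_irr_chain (Y := E) R' (GG_lift hc hkp hs R hG) hm k hk
    (q := q) i₀ (by rw [card_lft hc hkp hs (R.pgrp (k i₀)), hq]) (Z := π.ker)
    (fun x hx => by rw [Subgroup.mem_comap, MonoidHom.mem_ker.1 hx]; exact one_mem _) hc l hw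
  refine ⟨χ, h1, h2, a, e, t, h3, ?_, h5, h6⟩
  rw [comap_PJ_le hc hkp hs R, Subgroup.index_comap_of_surjective _ hs] at h4
  unfold charDegree
  rw [h4, Complex.natCast_re, Nat.floor_natCast]

end cover

end Cfsg.Agent.H297.RIM
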