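import Mathlib
import Cfsg.Agent.H297.RIM.Levi
import Cfsg.Agent.H521.RIM.Arith
import Cfsg.Agent.H665.RIM.Defs

/-!
# S4816, L-OPLUS: groups with a root group datum of type `D_{n+2}` (helper297)

* `index_two` : the index of `P_J`, `J` the chain `0, …, n - 1` (both end nodes are missing);
* `nb_D` : `NB p m S`, from the combinatorics of the elements of the Weyl group permuting the simple roots of `J`.
-/

set_option autoImplicit false
set_option linter.unusedSectionVars false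

namespace Cfsg.Agent.H297.RIM

open CoxeterSystem Cfsg.Agent.ChevalleyStructure.CoxeterGeom Cfsg.Agent.Tits.Roots Cfsg.Agent.Tits.Core
  Cfsg.Agent.Tits.RootComb Cfsg.Agent.Tits.Exchange Cfsg.Agent.Nodes.Comb Cfsg.Agent.Nodes.Reps
  Cfsg.Agent.Nodes.BNOf Cfsg.Agent.Nodes.StabComb Cfsg.Agent.Nodes.Bruhat Cfsg.Agent.Nodes.OppDec
  Cfsg.Agent.Nodes.LeviDec Cfsg.Agent.Nodes.NormalForm Cfsg.Agent.ChevalleyStructure.WeylAbstract
  Cfsg.Agent.H35.Poin Cfsg.Agent.H965.XZ Cfsg.Agent.H521.RIM Cfsg.Agent.H665.RIM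
open Cfsg.Agent.H53.HC (Perm)
open Cfsg.Agent.LieRecognition.BNCox (cA)

section path

variable {n : ℕ} {A : Fin (n + 2) → Fin (n + 2) → ℤ} (h : IsCartan (Cfsg.Agent.Nodes.TypeD.M n) A)

include h

/-- the nodes `0, …, n - 1` -/
theorem apath_two : APath A {j : Fin (n + 2) | (j : ℕ) < n} (nd (Nat.succ_pos (n + 1))) n := by
  have hv : ∀ t, t < n → ((nd (Nat.succ_pos (n + 1)) t : Fin (n + 2)) : ℕ) = t := fun t ht => nd_val _ (by omega)
  constructor
  · intro t ht
    show ((nd (Nat.succ_pos (n + 1)) t : Fin (n + 2)) : ℕ) < n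
    rw [hv t ht]
    exact ht
  · intro t ht
    refine cartD_adj h (Or.inl ?_)
    rw [hv _ (by omega), hv _ (by omega)]
    omega
  · intro s t hst ht
    refine cartD_far h (fun e => ?_) ?_ ?_
    · have := congrArg Fin.val e
      rw [hv _ (by omega), hv _ (by omega)] at this
      omega
    · unfold Cfsg.Agent.Nodes.TypeD.Adj
      rw [hv _ (by omega), hv _ (by omega)]
      omega
    · unfold Cfsg.Agent.Nodes.TypeD.Adj
      rw [hv _ (by omega), hv _ (by omega)]
      omega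
  · intro j hj hc t ht
    exfalso
    have h1 : (j : ℕ) < n := hj
    exact hc j h1 (Fin.ext (hv _ h1))
  · intro s hs t ht e
    have := congrArg Fin.val e
    rwa [hv _ (by omega), hv _ (by omega)] at this

end path

variable {n : ℕ} {W Y : Type*} [Group W] [Group Y] {cs : CoxeterSystem (Cfsg.Agent.Nodes.TypeD.M n) W}
  {A : Fin (n + 2) → Fin (n + 2) → ℤ} {h : IsCartan (Cfsg.Agent.Nodes.TypeD.M n) A} {r : ℕ} {T : Subgroup Y}
  {n' : Fin (n + 2) → Y} {X : (Fin (n + 2) → ℤ) → Subgroup Y} (R : RGD cs h r T n' X)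

include R

/-- **The index of `P_J`, `J` the chain `0, …, n - 1`.** -/
theorem index_two [Finite W] [Finite Y] (hG : GG cs h T X = ⊤) {y : ℕ}
    (hy : ∀ i : Fin (n + 2), Nat.card (X (sr i)) = y) :
    (PJ cs h T X {j : Fin (n + 2) | (j : ℕ) < n}).index =
      gs y (n + 2) * ∏ i ∈ Finset.range (n + 1), (1 + y ^ (i + 1)) := by
  have h1 := (PJ cs h T X {j : Fin (n + 2) | (j : ℕ) < n}).index_mul_card
  have h0 : {j : Fin (n + 2) | (j : ℕ) < n} \ {j | ∃ t < n, nd (Nat.succ_pos (n + 1)) t = j} = ∅ := by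
    rw [Set.eq_empty_iff_forall_notMem]
    rintro j ⟨h2, h3⟩
    have h4 : (j : ℕ) < n := h2
    exact h3 ⟨j, h4, Fin.ext (nd_val _ (by omega))⟩
  rw [card_top_D R hG hy, card_PJ_path R (apath_two h) (y := y) (fun t _ => hy _), h0, PJ_empty] at h1
  unfold TD at h1
  have h2 : ∏ i ∈ Finset.range (n + 2), gs y (i + 1) =
      (∏ i ∈ Finset.range n, ∑ t ∈ Finset.range (i + 2), y ^ t) * gs y (n + 2) := by
    rw [Finset.prod_range_succ', Finset.prod_range_succ]
    have h2 : gs y (0 + 1) = 1 := by simp [gs]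
    rw [h2, mul_one]
    rfl
  have e : n + 2 - 1 = n + 1 := by omega
  rw [h2, e] at h1
  have h3 : 0 < Nat.card ↥(RGD.B cs h T X) := Nat.card_pos
  have h4 : 0 < ∏ i ∈ Finset.range n, ∑ t ∈ Finset.range (i + 2), y ^ t :=
    Finset.prod_pos fun i _ => gs_pos y (i + 1)
  refine Nat.eq_of_mul_eq_mul_left h4 (Nat.eq_of_mul_eq_mul_right h3 ?_)
  rw [← mul_assoc] at h1
  calc _ = (PJ cs h T X {j : Fin (n + 2) | (j : ℕ) < n}).index * (∏ i ∈ Finset.range n, ∑ t ∈ Finset.range (i + 2), y ^ t) *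
        Nat.card ↥(RGD.B cs h T X) := by ring
    _ = _ := by rw [h1]; ring

omit R in
/-- arithmetic: `p` odd, `e t = ∏_{i < m} (q^(i+1) - 1)`, `t ∣ q - 1`, `2 ≤ m` -/
theorem dvd_of_prod {q m p e t : ℕ} (hp : p.Prime) (hm : 2 ≤ m) (het : e * t = ∏ i ∈ Finset.range m, (q ^ (i + 1) - 1))
    (ht : t ∣ Nat.gcd (m + 1) (q - 1)) (hq : 2 ≤ q) (hd : p ∣ ∏ i ∈ Finset.range m, (q ^ (i + 1) - 1)) : p ∣ e := by
  have ht1 : t ∣ q - 1 := ht.trans (Nat.gcd_dvd_right _ _)
  by_cases hpt : p ∣ t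
  · obtain ⟨c, hc⟩ := ht1
    have hp1 : p ∣ q - 1 := by rw [hc]; exact Dvd.dvd.mul_right hpt c
    have ht0 : 0 < t := by
      rcases Nat.eq_zero_or_pos t with h0 | h0
      · rw [h0, zero_mul] at hc
        omega
      · exact h0
    obtain ⟨m', rfl⟩ : ∃ m', m = m' + 2 := ⟨m - 2, by omega⟩
    have h1 : ∏ i ∈ Finset.range (m' + 2), (q ^ (i + 1) - 1) =
        t * (c * ∏ i ∈ Finset.range (m' + 1), (q ^ (i + 1 + 1) - 1)) := by
      rw [Finset.prod_range_succ', zero_add, pow_one, hc]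
      ring
    rw [h1, mul_comm] at het
    have h2 := Nat.eq_of_mul_eq_mul_left ht0 het
    rw [h2]
    refine Dvd.dvd.mul_left ?_ _
    refine Dvd.dvd.trans (hp1.trans ?_) (Finset.dvd_prod_of_mem _ (Finset.mem_range.2 (Nat.succ_pos m')))
    exact Nat.sub_one_dvd_pow_sub_one q _
  · rw [← het] at hd
    exact (hp.dvd_mul.1 hd).resolve_right hpt

/-- **`NB p m S`** for groups with a root group datum of type `D_{n+2}`, from the combinatorics. -/
theorem nb_D {S : Type*} [Group S] [Finite S] [Finite W] [Fact r.Prime] {T : Subgroup S} {n' : Fin (n + 2) → S}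
    {X : (Fin (n + 2) → ℤ) → Subgroup S} (R : RGD cs h r T n' X) (hG : GG cs h T X = ⊤) (hn : 2 ≤ n) {q : ℕ}
    (hq : 2 ≤ q) (hy : ∀ i : Fin (n + 2), Nat.card (X (sr i)) = q) {p : ℕ} (hp : p.Prime)
    (hd : p ∣ (q ^ (n + 2) - 1) * ∏ i ∈ Finset.range (n + 1), (q ^ (2 * (i + 1)) - 1)) {m : ℕ} (hm : m.Coprime r)
    (h1 : ∀ w : W, w ∉ WJ cs {j : Fin (n + 2) | (j : ℕ) + 1 ≠ n + 2} →
      Perm cs h {j : Fin (n + 2) | (j : ℕ) + 1 ≠ n + 2} w →
      ∀ i : Fin (n + 1), rep cs h w (sr i.castSucc) = sr i.rev.castSucc)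
    (h2 : Odd n → ∀ w : W, w ∉ WJ cs {j : Fin (n + 2) | (j : ℕ) < n} → Perm cs h {j : Fin (n + 2) | (j : ℕ) < n} w →
      ∀ i : Fin n, rep cs h w (sr i.castSucc.castSucc) = sr i.rev.castSucc.castSucc) : NB p m S := by
  classical
  intro E _ _ π hs hc hperf hcard l hl
  have hkp : (Nat.card π.ker).Coprime r := by rw [hcard]; exact hm
  have hM : ∀ i j : Fin (n + 2), Cfsg.Agent.Nodes.TypeD.M n i j =
      if i = j then 1 else if Cfsg.Agent.Nodes.TypeD.Adj i j ∨ Cfsg.Agent.Nodes.TypeD.Adj j i then 3 else 2 :=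
    fun i j => rfl
  have hdeg : ∀ {χ : E → ℂ} {a b c : ℕ}, Cfsg.charDegree χ = a * (b * c) → p ∣ a * c → p ∣ Cfsg.charDegree χ := by
    intro χ a b c h1 h2
    rw [h1]
    have : a * (b * c) = b * (a * c) := by ring
    rw [this]
    exact Dvd.dvd.mul_left h2 b
  rcases arith_D R hG (by omega) hy hp hd with hA | ⟨hodd, hA1, hA2, -⟩
  · -- the chain `0, …, n`
    let k : Fin (n + 1) ↪ Fin (n + 2) := ⟨Fin.castSucc, Fin.castSucc_injective _⟩
    have hkr : Set.range k = {j : Fin (n + 2) | (j : ℕ) + 1 ≠ n + 2} := by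
      ext j
      constructor
      · rintro ⟨i, rfl⟩
        show (i.castSucc : ℕ) + 1 ≠ n + 2
        rw [Fin.val_castSucc]
        omega
      · intro hj
        have hj' : (j : ℕ) + 1 ≠ n + 2 := hj
        exact ⟨⟨j, by omega⟩, Fin.ext rfl⟩
    obtain ⟨χ, hχ, hχl, a, e, t, ha, hχ1, het, ht⟩ := exists_irr_cover hc hkp hs R hG (by omega) k
      (fun i j => by
        rw [hM]
        change _ = Cfsg.Agent.LieRecognition.CoxClass.mA i j
        have hi := i.2
        have hj := j.2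
        have e1 : k i = k j ↔ (i : ℕ) = j := ⟨fun e => congrArg Fin.val (k.injective e), fun e => by rw [Fin.ext e]⟩
        unfold Cfsg.Agent.LieRecognition.CoxClass.mA Cfsg.Agent.Nodes.TypeD.Adj
        have v1 : (k i : ℕ) = i := rfl
        have v2 : (k j : ℕ) = j := rfl
        simp only [e1, v1, v2]
        split_ifs <;> omega)
      (q := q) 0 (hy _) l (by
        rw [hkr]
        exact fun w hw hP => ⟨by omega, fun i => h1 w hw hP i⟩)
    refine ⟨χ, hχ, hχl, hdeg hχ1 ?_⟩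
    rw [hkr]
    rcases hp.dvd_mul.1 hA with h3 | h3
    · exact Dvd.dvd.mul_right h3 _
    · exact Dvd.dvd.mul_left (dvd_of_prod hp (by omega) het ht hq h3) _
  · -- the chain `0, …, n - 1`
    have hodd' : Odd n := by
      rcases hodd with ⟨c, hc'⟩
      exact ⟨c - 1, by omega⟩
    have hn3 : 3 ≤ n := by
      rcases hodd' with ⟨c, hc'⟩
      omega
    let k : Fin n ↪ Fin (n + 2) := ⟨fun i => i.castSucc.castSucc, fun i j hij =>
      Fin.castSucc_injective _ (Fin.castSucc_injective _ hij)⟩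
    have hkr : Set.range k = {j : Fin (n + 2) | (j : ℕ) < n} := by
      ext j
      constructor
      · rintro ⟨i, rfl⟩
        exact i.2
      · intro hj
        exact ⟨⟨j, hj⟩, Fin.ext rfl⟩
    obtain ⟨χ, hχ, hχl, a, e, t, ha, hχ1, het, ht⟩ := exists_irr_cover hc hkp hs R hG (by omega) k
      (fun i j => by
        rw [hM]
        change _ = Cfsg.Agent.LieRecognition.CoxClass.mA i j
        have hi := i.2
        have hj := j.2
        have e1 : k i = k j ↔ (i : ℕ) = j := ⟨fun e => congrArg Fin.val (k.injective e), fun e => by rw [Fin.ext e]⟩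
        unfold Cfsg.Agent.LieRecognition.CoxClass.mA Cfsg.Agent.Nodes.TypeD.Adj
        have v1 : (k i : ℕ) = i := rfl
        have v2 : (k j : ℕ) = j := rfl
        simp only [e1, v1, v2]
        split_ifs <;> omega)
      (q := q) ⟨0, by omega⟩ (hy _) l (by
        rw [hkr]
        exact fun w hw hP => ⟨hn3, fun i => h2 hodd' w hw hP i⟩)
    refine ⟨χ, hχ, hχl, hdeg hχ1 ?_⟩
    rw [hkr, index_two R hG hy]
    exact Dvd.dvd.mul_right (Dvd.dvd.mul_right (dvd_gs hp (by omega) (by omega) hA1 hA2) _) _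

end Cfsg.Agent.H297.RIM
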